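import Mathlib
import Cfsg.Agent.Lib.Helper93.M11U.Defs
import Cfsg.Agent.Lib.Helper12.Subdeg
import Cfsg.Agent.Lib.Helper81.CharCore

/-!
# S0420, package PERM2 (helper48)

If the irreducible nonlinear `χ` of degree `[G : K] - 1` has a nonzero `K`-fixed vector, then the
permutation character of `G` on `G ⧸ K` is `1 + χ`.
-/

set_option autoImplicit false

namespace Cfsg.Agent.Lib.Helper48.M11U

open Cfsg.Agent.Lib.Helper93.M11U
open scoped ComplexConjugate

universe u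

/-- the averaged sum over a subgroup equal to `K`, in terms of `sumOn` -/
theorem sum_subgroup_eq {G : Type u} [Group G] [Finite G] (K : Subgroup G) (ψ : G → ℂ)
    (S : Subgroup G) (inst : Fintype S) (hS : S = K) :
    (Nat.card S : ℂ)⁻¹ * ∑ h : S, conj (ψ h) = (Nat.card K : ℂ)⁻¹ * conj (sumOn ψ K) := by
  subst hS
  unfold sumOn
  rw [finsum_eq_sum_of_fintype, map_sum]

theorem pkgPerm2 : PkgPerm2.{u} := by
  intro G _ _ K χ hχ hχ1 hdeg hsum
  classical
  haveI : Fintype G := Fintype.ofFinite G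
  haveI : Fintype (G ⧸ K) := Fintype.ofFinite _
  haveI : Finite (Cfsg.IrrCharacter G) := Cfsg.Agent.Lib.Helper81.irr_finite G
  haveI : Fintype (Cfsg.IrrCharacter G) := Fintype.ofFinite _
  have hπchar : Cfsg.IsCharacter G (Cfsg.Agent.Lib.Helper12.Subdeg.permChar G (G ⧸ K)) :=
    Cfsg.Agent.Lib.Helper12.Subdeg.isCharacter_permChar
  obtain ⟨m, hm, hexp⟩ := Cfsg.Agent.Lib.Helper75.char_eq_sum_irr hπchar
  have hstab : MulAction.stabilizer G ((1 : G) : G ⧸ K) = K := MulAction.stabilizer_quotient K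
  have hKpos : (Nat.card K : ℂ) ≠ 0 := by
    exact_mod_cast (Nat.card_pos (α := K)).ne'
  -- the multiplicities
  have hmult : ∀ ψ : Cfsg.IrrCharacter G,
      (m ψ : ℂ) = (Nat.card K : ℂ)⁻¹ * conj (sumOn ψ.1 K) := by
    intro ψ
    have hcf : Cfsg.IsClassFunction G ψ.1 := fun g h =>
      Cfsg.Agent.Lib.Helper81.irr_conj_class ψ g h
    rw [← hm ψ, Cfsg.Agent.Lib.Helper12.Subdeg.classInner_permChar ((1 : G) : G ⧸ K) hcf]
    exact sum_subgroup_eq K ψ.1 _ _ hstab
  -- the two constituents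
  let ψ1 : Cfsg.IrrCharacter G := ⟨fun _ => 1, Cfsg.Agent.Lib.Helper81.isIrrCharacter_one⟩
  let χ' : Cfsg.IrrCharacter G := ⟨χ, hχ⟩
  have hne : ψ1 ≠ χ' := by
    intro h
    apply hχ1
    have := congrArg (fun ψ : Cfsg.IrrCharacter G => ψ.1 1) h
    exact this.symm
  have hm1 : m ψ1 = 1 := by
    have h1 := hmult ψ1
    have h2 : sumOn (ψ1.1) K = (Nat.card K : ℂ) := by
      unfold sumOn
      rw [finsum_eq_sum_of_fintype]
      simp [ψ1, Nat.card_eq_fintype_card]
    rw [h2, Complex.conj_natCast, inv_mul_cancel₀ hKpos] at h1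
    exact_mod_cast h1
  have hmχ : 1 ≤ m χ' := by
    have h1 := hmult χ'
    rcases Nat.eq_zero_or_pos (m χ') with h0 | hpos
    · exfalso
      rw [h0, Nat.cast_zero] at h1
      have h2 : conj (sumOn χ K) = 0 := by
        rcases mul_eq_zero.mp h1.symm with h | h
        · exact absurd (inv_eq_zero.mp h) hKpos
        · exact h
      apply hsum
      simpa using h2
    · exact hpos
  -- degrees
  choose d hdpos hd using fun ψ : Cfsg.IrrCharacter G => Cfsg.Agent.Lib.Helper81.irr_one_eq ψ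
  have hd1 : d ψ1 = 1 := by
    have := hd ψ1
    have h2 : (1 : ℂ) = (d ψ1 : ℂ) := this
    exact_mod_cast h2.symm
  have hπ1 : Cfsg.Agent.Lib.Helper12.Subdeg.permChar G (G ⧸ K) 1 = (K.index : ℂ) := by
    show ((Nat.card (MulAction.fixedBy (G ⧸ K) (1 : G)) : ℕ) : ℂ) = _
    congr 1
    have hfix : MulAction.fixedBy (G ⧸ K) (1 : G) = Set.univ :=
      Set.eq_univ_of_forall (fun x => by simp [MulAction.mem_fixedBy])
    rw [hfix, Nat.card_coe_set_eq, Set.ncard_univ, Subgroup.index]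
  have hsumdeg : ∑ ψ : Cfsg.IrrCharacter G, m ψ * d ψ = d χ' + 1 := by
    have h1 := congrFun hexp 1
    rw [hπ1] at h1
    have h2 : (K.index : ℂ) = ((∑ ψ : Cfsg.IrrCharacter G, m ψ * d ψ : ℕ) : ℂ) := by
      rw [h1, Finset.sum_apply]
      push_cast
      refine Finset.sum_congr rfl (fun ψ _ => ?_)
      rw [Pi.smul_apply, smul_eq_mul, hd ψ]
    have h3 : ((d χ' : ℕ) : ℂ) + 1 = (K.index : ℂ) := by
      rw [← hdeg]
      congr 1
      exact (hd χ').symm
    have h4 : ((d χ' + 1 : ℕ) : ℂ) = ((∑ ψ : Cfsg.IrrCharacter G, m ψ * d ψ : ℕ) : ℂ) := by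
      rw [← h2, ← h3]
      push_cast
      ring
    exact_mod_cast h4.symm
  -- split the sum
  have hsplit : ∑ ψ : Cfsg.IrrCharacter G, m ψ * d ψ =
      m ψ1 * d ψ1 + (m χ' * d χ' + ∑ ψ ∈ (Finset.univ.erase ψ1).erase χ', m ψ * d ψ) := by
    rw [← Finset.add_sum_erase Finset.univ _ (Finset.mem_univ ψ1),
      ← Finset.add_sum_erase (Finset.univ.erase ψ1) _
        (Finset.mem_erase.mpr ⟨hne.symm, Finset.mem_univ χ'⟩)]
  rw [hsplit, hm1, hd1] at hsumdeg
  have hdχ := hdpos χ'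
  have hle : d χ' ≤ m χ' * d χ' := Nat.le_mul_of_pos_left _ hmχ
  have hrest : ∑ ψ ∈ (Finset.univ.erase ψ1).erase χ', m ψ * d ψ = 0 := by omega
  have hmχ1 : m χ' = 1 := by
    have h1 : m χ' * d χ' = d χ' := by omega
    have h2 : m χ' * d χ' = 1 * d χ' := by rw [h1, one_mul]
    exact Nat.eq_of_mul_eq_mul_right hdχ h2
  have hzero : ∀ ψ : Cfsg.IrrCharacter G, ψ ≠ ψ1 ∧ ψ ≠ χ' → m ψ = 0 := by
    intro ψ hψ
    have hmem : ψ ∈ (Finset.univ.erase ψ1).erase χ' :=
      Finset.mem_erase.mpr ⟨hψ.2, Finset.mem_erase.mpr ⟨hψ.1, Finset.mem_univ ψ⟩⟩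
    have h1 := (Finset.sum_eq_zero_iff.mp hrest) ψ hmem
    rcases Nat.mul_eq_zero.mp h1 with h | h
    · exact h
    · exact absurd h (hdpos ψ).ne'
  refine ⟨fun g => ?_, ?_⟩
  · have h1 := congrFun hexp g
    have h2 : (fixCount K g : ℂ) = Cfsg.Agent.Lib.Helper12.Subdeg.permChar G (G ⧸ K) g := rfl
    rw [h2, h1, Finset.sum_apply]
    rw [Finset.sum_eq_add ψ1 χ' hne]
    · simp [hm1, hmχ1, ψ1, χ']
    · intro ψ _ hψ
      rw [hzero ψ hψ]
      simp
    · intro h
      exact absurd (Finset.mem_univ _) h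
    · intro h
      exact absurd (Finset.mem_univ _) h
  · have h1 := hmult χ'
    rw [hmχ1, Nat.cast_one] at h1
    have h2 : conj (sumOn χ K) = (Nat.card K : ℂ) := by
      have h3 : (Nat.card K : ℂ) * 1 = (Nat.card K : ℂ) * ((Nat.card K : ℂ)⁻¹ *
          conj (sumOn χ K)) := by rw [← h1]
      rw [mul_one, ← mul_assoc, mul_inv_cancel₀ hKpos, one_mul] at h3
      exact h3.symm
    have h4 := congrArg conj h2
    simpa using h4

end Cfsg.Agent.Lib.Helper48.M11U
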